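import Cfsg.Agent.Lib.Helper35.TitsP1755.PChk0

namespace Cfsg.Agent.Lib.Helper35.TitsP1755

open Cfsg.Agent.Lib.Helper35

theorem hsub : allBelow (fixAll sl) 1 = true := by decide +kernel

noncomputable def permData : PermData PresTitsP.cc.C PresTitsP.cc.inv PresTitsP.R S 1754 where
  pt := pt
  hinvC := PresTitsP.hinvC
  hinv2 := PresTitsP.hinv2
  hinvE := PresTitsP.hinvE
  hchk := by
    intro c hc
    have hc' : c < 6 := hc
    interval_cases c
    exacts [c0u0, c1u0, c2u0, c3u0, c4u0, c5u0]
  hrel := fix_of_leaves' rl 1755 ru1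
  hsub := fun b hb => fix_of_leaves sl 1 hsub b hb 0 (by decide)
  hRC := PresTitsP.hRC
  hSC := by decide +kernel
  tp := tp
  cK := 8
  htree := tu0


noncomputable def orbData : OrbData permData where
  sl := sl
  hsl := rfl
  ot := ot
  db := 3
  rep := rep
  hchk := allBelow_of_forall _ _ ou0

theorem ocnt0 : countBelow (fun j => Nat.beq (orbData.lab j) 0) 1755 = 1 := l0n0
theorem orep0 : orbData.lab (orbData.rep 0) = 0 := by decide +kernel
theorem ocnt1 : countBelow (fun j => Nat.beq (orbData.lab j) 1) 1755 = 1024 := l1n0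
theorem orep1 : orbData.lab (orbData.rep 1) = 1 := by decide +kernel
theorem ocnt2 : countBelow (fun j => Nat.beq (orbData.lab j) 2) 1755 = 80 := l2n0
theorem orep2 : orbData.lab (orbData.rep 2) = 2 := by decide +kernel
theorem ocnt3 : countBelow (fun j => Nat.beq (orbData.lab j) 3) 1755 = 640 := l3n0
theorem orep3 : orbData.lab (orbData.rep 3) = 3 := by decide +kernel
theorem ocnt4 : countBelow (fun j => Nat.beq (orbData.lab j) 4) 1755 = 10 := l4n0
theorem orep4 : orbData.lab (orbData.rep 4) = 4 := by decide +kernel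
end Cfsg.Agent.Lib.Helper35.TitsP1755
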